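import Mathlib
import Cfsg.Agent.Helper17.L27.Conc
import Cfsg.Agent.Helper17.L27.IsoGen
import Cfsg.Agent.Helper17.TCD.L211_Chk

/-!
# `PSL₂(11)` through a presentation (helper17)

* `card_le_L211`: a group generated by `u`, `v` with
  `u² = v¹¹ = (uv)⁵ = (v⁻¹uv²uv⁻¹)² = (uv⁻³)³ = 1` has order at most 660;
* `iso_of_gens_le`: the gluing lemma with an upper bound only for the order of the second group;
* `psl211_gens`: generators of `PSL₂(F)`, `|F| = 11`, satisfying these relations.
-/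

set_option autoImplicit false

universe u1 u2

namespace Cfsg.Agent.Helper17.L211

open Cfsg.Agent.Helper17.TC Cfsg.Agent.Helper17 Cfsg.Agent.Helper17.J1 Cfsg.Agent.Helper17.L27
open Matrix

section

variable {K : Type*} [Group K]

/-- a group generated by `a`, `b` with the relations of `L₂(11)` is finite of order at most 660 -/
theorem card_le_L211 (a b : K) (hgen : Subgroup.closure ({a, b} : Set K) = ⊤)
    (hR : ∀ r ∈ TCD.L211.relsL, ev a b r = 1) : Finite K ∧ Nat.card K ≤ 660 := by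
  have hsub : ∀ w ∈ TCD.L211.cert.subs, (w.map (cols a b)).prod ∈ Subgroup.zpowers b := by
    intro w hw
    have hw' : w ∈ [[2]] := hw
    simp only [List.mem_cons, List.not_mem_nil, or_false] at hw'
    subst hw'
    have e : ([2].map (cols a b)).prod = b := by simp [cols]
    rw [e]
    exact Subgroup.mem_zpowers _
  obtain ⟨hfin, hle⟩ := index_le (c := TCD.L211.cert) (Subgroup.zpowers b) (cols a b)
    TCD.L211.checked (cols_gen' a b hgen) (cols_ginv' a b) hR hsub
  have hle' : (Subgroup.zpowers b).index ≤ 60 := hle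
  have hb11 : b ^ 11 = 1 := by
    have := hR [2, 2, 2, 2, 2, 2, 2, 2, 2, 2, 2] (by simp [TCD.L211.relsL])
    simpa [ev, cols, pow_succ, mul_assoc] using this
  have h3 : Nat.card (Subgroup.zpowers b) ≤ 11 := by
    rw [Nat.card_zpowers]
    exact orderOf_le_of_pow_eq_one (by norm_num) hb11
  have h3' : Nat.card (Subgroup.zpowers b) ≠ 0 := by
    rw [Nat.card_zpowers]
    exact (orderOf_pos_iff.2 (isOfFinOrder_iff_pow_eq_one.2 ⟨11, by norm_num, hb11⟩)).ne'
  have h4 : (Subgroup.zpowers b).index ≠ 0 := by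
    rw [Subgroup.index]
    exact Nat.card_pos.ne'
  have hc := Subgroup.card_mul_index (Subgroup.zpowers b)
  have hK : Nat.card K ≠ 0 := by rw [← hc]; exact Nat.mul_ne_zero h3' h4
  refine ⟨Nat.finite_of_card_ne_zero hK, ?_⟩
  rw [← hc]
  calc Nat.card (Subgroup.zpowers b) * (Subgroup.zpowers b).index ≤ 11 * 60 :=
        Nat.mul_le_mul h3 hle'
    _ = 660 := by norm_num

end

/-- the gluing lemma, with only an upper bound for the order of the second group -/
theorem iso_of_gens_le {G1 : Type u1} {G2 : Type u2} [Group G1] [Group G2] [Finite G1]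
    [Finite G2] (N : ℕ) (rels : List (List ℕ)) (h1 : Nat.card G1 = N) (h2 : Nat.card G2 ≤ N)
    (hN : 1 < N) [IsSimpleGroup G1] (a1 b1 : G1) (a2 b2 : G2)
    (hbound : ∀ (D : Subgroup (G1 × G2)) (a b : D), Subgroup.closure ({a, b} : Set D) = ⊤ →
      (∀ r ∈ rels, ev a b r = 1) → Finite D ∧ Nat.card D ≤ N)
    (hR1 : ∀ r ∈ rels, ev a1 b1 r = 1) (hR2 : ∀ r ∈ rels, ev a2 b2 r = 1)
    (hgen1 : Subgroup.closure ({a1, b1} : Set G1) = ⊤) (hne : a2 ≠ 1 ∨ b2 ≠ 1) :
    Nonempty (G1 ≃* G2) := by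
  let D : Subgroup (G1 × G2) := Subgroup.closure {(a1, a2), (b1, b2)}
  have hAD : (a1, a2) ∈ D := Subgroup.subset_closure (by simp)
  have hBD : (b1, b2) ∈ D := Subgroup.subset_closure (by simp)
  let A : D := ⟨(a1, a2), hAD⟩
  let B : D := ⟨(b1, b2), hBD⟩
  have hgen : Subgroup.closure ({A, B} : Set D) = ⊤ := by
    have := Subgroup.closure_closure_coe_preimage (k := ({(a1, a2), (b1, b2)} : Set (G1 × G2)))
    convert this using 2
    ext z
    simp only [Set.mem_insert_iff, Set.mem_singleton_iff, Set.mem_preimage]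
    constructor
    · rintro (rfl | rfl)
      · left; rfl
      · right; rfl
    · rintro (h | h)
      · left; exact Subtype.ext h
      · right; exact Subtype.ext h
  have hRD : ∀ r ∈ rels, ev A B r = 1 := by
    intro r hr
    apply Subtype.ext
    rw [coe_ev]
    apply Prod.ext
    · have := map_ev (MonoidHom.fst G1 G2) (a1, a2) (b1, b2) r
      simp only [MonoidHom.coe_fst] at this
      rw [this]
      exact hR1 r hr
    · have := map_ev (MonoidHom.snd G1 G2) (a1, a2) (b1, b2) r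
      simp only [MonoidHom.coe_snd] at this
      rw [this]
      exact hR2 r hr
  obtain ⟨hfinD, hD⟩ := hbound D A B hgen hRD
  let π1 : D →* G1 := (MonoidHom.fst G1 G2).comp D.subtype
  let π2 : D →* G2 := (MonoidHom.snd G1 G2).comp D.subtype
  have htop : π1.range = ⊤ := by
    rw [eq_top_iff, ← hgen1, Subgroup.closure_le]
    rintro z (rfl | rfl)
    · exact ⟨A, rfl⟩
    · exact ⟨B, rfl⟩
  have hs1 : Function.Surjective π1 := MonoidHom.range_eq_top.1 htop
  have hD' : Nat.card D = N := by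
    have := Nat.card_le_card_of_surjective π1 hs1
    omega
  have hbij1 : Function.Bijective π1 :=
    (Nat.bijective_iff_surjective_and_card π1).2 ⟨hs1, by rw [hD', h1]⟩
  let e1 : D ≃* G1 := MulEquiv.ofBijective π1 hbij1
  have hnt : Nontrivial D := by
    rw [← Finite.one_lt_card_iff_nontrivial, hD']
    exact hN
  have hsD : IsSimpleGroup D :=
    IsSimpleGroup.isSimpleGroup_of_surjective e1.symm.toMonoidHom e1.symm.surjective
  have hker : π2.ker = ⊥ := by
    rcases (MonoidHom.normal_ker π2).eq_bot_or_eq_top with h | h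
    · exact h
    · exfalso
      have hA : A ∈ π2.ker := by rw [h]; trivial
      have hB : B ∈ π2.ker := by rw [h]; trivial
      rcases hne with h' | h'
      · exact h' (MonoidHom.mem_ker.1 hA)
      · exact h' (MonoidHom.mem_ker.1 hB)
  have hinj2 : Function.Injective π2 := (MonoidHom.ker_eq_bot_iff π2).1 hker
  have h2' : Nat.card G2 = N := by
    have := Nat.card_le_card_of_injective π2 hinj2
    omega
  have hbij2 : Function.Bijective π2 :=
    (Nat.bijective_iff_injective_and_card π2).2 ⟨hinj2, by rw [hD', h2']⟩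
  exact ⟨e1.symm.trans (MulEquiv.ofBijective π2 hbij2)⟩

/-! ### `SL₂(ℤ/11)` -/

def A11 : SpecialLinearGroup (Fin 2) (ZMod 11) := ⟨!![0, 10; 1, 0], by decide⟩
def Ai11 : SpecialLinearGroup (Fin 2) (ZMod 11) := ⟨!![0, 1; 10, 0], by decide⟩
def B11 : SpecialLinearGroup (Fin 2) (ZMod 11) := ⟨!![0, 3; 7, 2], by decide⟩
def Bi11 : SpecialLinearGroup (Fin 2) (ZMod 11) := ⟨!![2, 8; 4, 0], by decide⟩
def N11 : SpecialLinearGroup (Fin 2) (ZMod 11) := ⟨!![10, 0; 0, 10], by decide⟩

theorem inv11 : A11 * Ai11 = 1 ∧ B11 * Bi11 = 1 := by decide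

theorem rel11 : ∀ r ∈ TCD.L211.relsL,
    ev4 A11 Ai11 B11 Bi11 r = 1 ∨ ev4 A11 Ai11 B11 Bi11 r = N11 := by
  decide +kernel

theorem nc11 : A11 * B11 ≠ B11 * A11 ∧ (A11 * B11) * A11 ≠ A11 * (A11 * B11) ∧
    ev4 A11 Ai11 B11 Bi11 [0, 3, 3, 3] * A11 ≠ A11 * ev4 A11 Ai11 B11 Bi11 [0, 3, 3, 3] := by
  decide +kernel

theorem N11_entries : ∀ i j, N11 i j = if i = j then (10 : ZMod 11) else 0 := by
  intro i j
  fin_cases i <;> fin_cases j <;> rfl

section main

variable {F : Type*} [Field F] [Fintype F]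

theorem card_psl211 (hF : Fintype.card F = 11) :
    Nat.card (ProjectiveSpecialLinearGroup (Fin 2) F) = 660 := by
  have h1 := Cfsg.Agent.Helper2.SLCard.card_SL_mul F 2 (by norm_num)
  have h2 := Cfsg.Agent.Helper2.SLCard.card_PSL_mul F 2 (by norm_num)
  have h3 : Nat.card (GL (Fin 2) F) = 13200 := by
    rw [Matrix.card_GL_field, hF]
    simp [Fin.prod_univ_two]
  rw [hF, h3] at h1
  rw [hF] at h2
  have e : Nat.gcd (11 - 1) 2 = 2 := by decide
  rw [e] at h2
  omega

theorem simple_psl211 (hF : Fintype.card F = 11) :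
    IsSimpleGroup (ProjectiveSpecialLinearGroup (Fin 2) F) := by
  let e11 : ZMod 11 ≃+* F := ZMod.ringEquivOfPrime F (by norm_num) hF
  apply Matrix.ProjectiveSpecialLinearGroup.rank_two_simple'
  refine ⟨e11 2, ?_, ?_⟩
  · intro h
    have : (2 : ZMod 11) = 0 := e11.injective (by rw [h, map_zero])
    exact absurd this (by decide)
  · intro h
    have : (2 : ZMod 11) ^ 2 = 1 := e11.injective (by rw [map_pow, h, map_one])
    exact absurd this (by decide)

/-- generators of `PSL₂(F)`, `|F| = 11`, satisfying the relations of `L₂(11)` -/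
theorem psl211_gens (hF : Fintype.card F = 11) :
    ∃ a b : ProjectiveSpecialLinearGroup (Fin 2) F,
      Subgroup.closure ({a, b} : Set (ProjectiveSpecialLinearGroup (Fin 2) F)) = ⊤ ∧
      ∀ r ∈ TCD.L211.relsL, ev a b r = 1 := by
  classical
  let e11 : ZMod 11 ≃+* F := ZMod.ringEquivOfPrime F (by norm_num) hF
  have he : Function.Injective (e11 : ZMod 11 →+* F) := e11.injective
  have hfin : Finite (ProjectiveSpecialLinearGroup (Fin 2) F) :=
    Nat.finite_of_card_ne_zero (by rw [card_psl211 hF]; norm_num)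
  have hs := simple_psl211 hF
  let φ := phi (n := 2) (e11 : ZMod 11 →+* F)
  have hN : φ N11 = 1 := phi_eq_one _ 10 (by decide) N11_entries
  have ia : φ A11 * φ Ai11 = 1 := by rw [← map_mul, inv11.1, map_one]
  have ib : φ B11 * φ Bi11 = 1 := by rw [← map_mul, inv11.2, map_one]
  have hR : ∀ r ∈ TCD.L211.relsL, ev (φ A11) (φ B11) r = 1 := by
    intro r hr
    rw [ev_eq_map_ev4 φ A11 Ai11 B11 Bi11 ia ib]
    rcases rel11 r hr with h | h
    · rw [h, map_one]
    · rw [h, hN]
  refine ⟨φ A11, φ B11, ?_, hR⟩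
  set a := φ A11 with ha_def
  set b := φ B11 with hb_def
  -- orders of `a`, `b`, `ab`, `ab⁻³`
  have ha2 : a ^ 2 = 1 := by
    have := hR [0, 0] (by simp [TCD.L211.relsL])
    simpa [ev, cols, pow_succ, mul_assoc] using this
  have hb11 : b ^ 11 = 1 := by
    have := hR [2, 2, 2, 2, 2, 2, 2, 2, 2, 2, 2] (by simp [TCD.L211.relsL])
    simpa [ev, cols, pow_succ, mul_assoc] using this
  have hab5 : (a * b) ^ 5 = 1 := by
    have := hR [0, 2, 0, 2, 0, 2, 0, 2, 0, 2] (by simp [TCD.L211.relsL])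
    simpa [ev, cols, pow_succ, mul_assoc] using this
  have hc3 : (ev a b [0, 3, 3, 3]) ^ 3 = 1 := by
    have := hR [0, 3, 3, 3, 0, 3, 3, 3, 0, 3, 3, 3] (by simp [TCD.L211.relsL])
    simpa [ev, cols, pow_succ, mul_assoc] using this
  have hb1 : b ≠ 1 := by
    refine phi_ne_one _ he (C := A11) ?_
    exact fun h => nc11.1 h.symm
  have ha1 : a ≠ 1 := phi_ne_one _ he (C := B11) nc11.1
  have hab1 : a * b ≠ 1 := by
    rw [ha_def, hb_def, ← map_mul]
    exact phi_ne_one _ he nc11.2.1
  have hc1 : ev a b [0, 3, 3, 3] ≠ 1 := by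
    rw [ha_def, hb_def, ev_eq_map_ev4 φ A11 Ai11 B11 Bi11 ia ib]
    exact phi_ne_one _ he nc11.2.2
  have o2 : orderOf a = 2 := orderOf_eq_prime ha2 ha1
  have o11 : orderOf b = 11 := by
    have : Fact (Nat.Prime 11) := ⟨by norm_num⟩
    exact orderOf_eq_prime hb11 hb1
  have o5 : orderOf (a * b) = 5 := by
    have : Fact (Nat.Prime 5) := ⟨by norm_num⟩
    exact orderOf_eq_prime hab5 hab1
  have o3 : orderOf (ev a b [0, 3, 3, 3]) = 3 := by
    have : Fact (Nat.Prime 3) := ⟨by norm_num⟩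
    exact orderOf_eq_prime hc3 hc1
  let H : Subgroup (ProjectiveSpecialLinearGroup (Fin 2) F) := Subgroup.closure {a, b}
  have haH : a ∈ H := Subgroup.subset_closure (by simp)
  have hbH : b ∈ H := Subgroup.subset_closure (by simp)
  have hcH : ev a b [0, 3, 3, 3] ∈ H := by
    have e : ev a b [0, 3, 3, 3] = a * (b⁻¹ * (b⁻¹ * b⁻¹)) := by simp [ev, cols]
    rw [e]
    exact H.mul_mem haH (H.mul_mem (H.inv_mem hbH) (H.mul_mem (H.inv_mem hbH) (H.inv_mem hbH)))
  have dvd_of_mem : ∀ x ∈ H, orderOf x ∣ Nat.card H := by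
    intro x hx
    rw [← Nat.card_zpowers]
    exact Subgroup.card_dvd_of_le ((Subgroup.zpowers_le).2 hx)
  have d2 := dvd_of_mem a haH
  have d11 := dvd_of_mem b hbH
  have d5 := dvd_of_mem (a * b) (H.mul_mem haH hbH)
  have d3 := dvd_of_mem _ hcH
  rw [o2] at d2
  rw [o11] at d11
  rw [o5] at d5
  rw [o3] at d3
  have d330 : 330 ∣ Nat.card H := by omega
  exact eq_top_of_dvd_card H 660 330 (card_psl211 hF) d330 (by norm_num) (by norm_num)

end main

end Cfsg.Agent.Helper17.L211
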