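import Mathlib
import Cfsg.Agent.Helper28.M12Data
import Cfsg.Agent.Helper17.J1.Schur2

/-!
# The Schur multiplier of `M₁₁` is trivial (helper17)

Explicit elements of `M₁₁` (tables in the conventions of helper28's library): a semidihedral
Sylow 2-subgroup `⟨x, y⟩`, a Sylow 3-subgroup `⟨a, b⟩` with `y` inverting `a` and centralising `b`,
and elements of orders 5 and 11; then `schur_trivial_7920`.
-/

set_option autoImplicit false

namespace Cfsg.Agent.Helper17.M11S

open Cfsg Cfsg.Agent.Helper28 Cfsg.Agent.Helper28.Golay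
open scoped Pointwise

theorem mem_M11 (x : Equiv.Perm Cfsg.GolayPt) :
    x ∈ Cfsg.Spor.M11 ↔ x ∈ Cfsg.M24 ∧ x • toSet d0 = toSet d0 ∧ x (some 0) = some 0 := by
  rw [toSet_d0]
  constructor
  · intro h
    obtain ⟨h1, h2⟩ := Subgroup.mem_inf.1 h
    obtain ⟨h3, h4⟩ := Subgroup.mem_inf.1 h1
    exact ⟨h3, MulAction.mem_stabilizer_iff.1 h4, MulAction.mem_stabilizer_iff.1 h2⟩
  · rintro ⟨h1, h2, h3⟩
    exact Subgroup.mem_inf.2 ⟨Subgroup.mem_inf.2 ⟨h1, MulAction.mem_stabilizer_iff.2 h2⟩,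
      MulAction.mem_stabilizer_iff.2 h3⟩

theorem pt_zero : pt 0 = (some 0 : Cfsg.GolayPt) := by decide +kernel

theorem zero_mem_d0 : pt 0 ∈ toSet d0 := by decide +kernel

/-- the order of `M₁₁` -/
theorem card_M11 : Nat.card Cfsg.Spor.M11 = 7920 := by
  have h := card_stab_flag (toSet d0) d0_mem (pt 0) zero_mem_d0
  have e : Cfsg.Spor.M11 = (MulAction.stabilizer Cfsg.M24 (toSet d0) ⊓
      MulAction.stabilizer Cfsg.M24 (pt 0)).map Cfsg.M24.subtype := by
    ext σ
    rw [Subgroup.mem_map, mem_M11]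
    constructor
    · rintro ⟨h1, h2, h3⟩
      refine ⟨⟨σ, h1⟩, Subgroup.mem_inf.2 ⟨MulAction.mem_stabilizer_iff.2 h2,
        MulAction.mem_stabilizer_iff.2 ?_⟩, rfl⟩
      rw [pt_zero]
      exact h3
    · rintro ⟨⟨τ, hτ⟩, hmem, rfl⟩
      obtain ⟨h2, h3⟩ := Subgroup.mem_inf.1 hmem
      refine ⟨hτ, MulAction.mem_stabilizer_iff.1 h2, ?_⟩
      have h4 := MulAction.mem_stabilizer_iff.1 h3
      rw [pt_zero] at h4
      exact h4
  rw [e, Nat.card_congr (Subgroup.equivMapOfInjective _ _ Cfsg.M24.subtype_injective).symm.toEquiv]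
  exact h

/-- power of a table -/
def powT (T : List Nat) : Nat → List Nat
  | 0 => idT
  | k + 1 => comp T (powT T k)

theorem isPerm_powT {T : List Nat} (h : isPerm T = true) (k : Nat) : isPerm (powT T k) = true := by
  induction k with
  | zero => exact isPerm_idT
  | succ k ih => exact isPerm_comp h ih

theorem permOf_powT {T : List Nat} (h : isPerm T = true) (k : Nat) :
    permOf T ^ k = permOf (powT T k) := by
  induction k with
  | zero => rw [pow_zero]; exact permOf_idT.symm
  | succ k ih => rw [pow_succ', ih, permOf_mul h (isPerm_powT h k)]; rfl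

theorem permOf_eq_one {T : List Nat} (h : T = idT) : permOf T = 1 := by rw [h, permOf_idT]

theorem permOf_ne_one_of {T : List Nat} (hT : isPerm T = true) (i : Nat) (hi : i < 24)
    (h : tf T i ≠ i) : permOf T ≠ 1 := by
  intro e
  have h1 : idx (permOf T (pt i)) = idx ((1 : Equiv.Perm Cfsg.GolayPt) (pt i)) := by rw [e]
  rw [idx_permOf hT, idx_pt i hi] at h1
  exact h (h1.trans (idx_pt i hi))

theorem mem_of_table {T : List Nat} (h : inM24 T = true) (hd : permMask (tf T) d0 = d0)
    (h0 : tf T 0 = 0) : permOf T ∈ Cfsg.Spor.M11 := by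
  rw [mem_M11]
  refine ⟨permOf_mem_M24 h, ?_, ?_⟩
  · rw [smul_toSet_permOf (isPerm_of_inM24 h), hd]
  · have := permOf_pt (isPerm_of_inM24 h) (i := 0) (by norm_num)
    rw [h0, pt_zero] at this
    exact this

/-- an element of order 8 -/
def Tx : List Nat := [0, 1, 3, 2, 8, 17, 13, 19, 6, 18, 15, 21, 16, 12, 23, 11, 9, 14, 4, 22, 10, 7, 20, 5]

/-- an involution with `y x y⁻¹ = x³` -/
def Ty : List Nat := [0, 1, 3, 2, 4, 5, 9, 10, 13, 6, 7, 11, 12, 8, 14, 20, 18, 23, 16, 21, 15, 19, 22, 17]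

/-- an element of order 3 inverted by `y` -/
def Ta : List Nat := [0, 2, 3, 1, 13, 5, 6, 21, 4, 9, 20, 11, 18, 8, 17, 7, 12, 23, 16, 10, 19, 15, 22, 14]

/-- an element of order 3 centralised by `y`, commuting with `a` -/
def Tb : List Nat := [0, 4, 13, 8, 12, 11, 6, 21, 16, 9, 19, 22, 1, 18, 14, 7, 3, 17, 2, 20, 10, 15, 5, 23]

/-- an element of order 5 -/
def Tc : List Nat := [0, 1, 3, 4, 8, 19, 12, 22, 9, 2, 17, 7, 18, 6, 20, 14, 13, 11, 16, 15, 5, 21, 10, 23]

/-- an element of order 11 -/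
def Td : List Nat := [0, 2, 3, 4, 6, 22, 12, 19, 16, 1, 17, 10, 13, 8, 20, 14, 18, 15, 9, 11, 23, 21, 7, 5]

theorem hTx : inM24 Tx = true := by decide +kernel
theorem hTy : inM24 Ty = true := by decide +kernel
theorem hTa : inM24 Ta = true := by decide +kernel
theorem hTb : inM24 Tb = true := by decide +kernel
theorem hTc : inM24 Tc = true := by decide +kernel
theorem hTd : inM24 Td = true := by decide +kernel

/-- the element of `M₁₁` with a given table -/
noncomputable def el (T : List Nat) (h : inM24 T = true) (hd : permMask (tf T) d0 = d0)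
    (h0 : tf T 0 = 0) : Cfsg.Spor.M11 := ⟨permOf T, mem_of_table h hd h0⟩

noncomputable def ex : Cfsg.Spor.M11 := el Tx hTx (by decide +kernel) (by decide +kernel)
noncomputable def ey : Cfsg.Spor.M11 := el Ty hTy (by decide +kernel) (by decide +kernel)
noncomputable def ea : Cfsg.Spor.M11 := el Ta hTa (by decide +kernel) (by decide +kernel)
noncomputable def eb : Cfsg.Spor.M11 := el Tb hTb (by decide +kernel) (by decide +kernel)
noncomputable def ec : Cfsg.Spor.M11 := el Tc hTc (by decide +kernel) (by decide +kernel)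
noncomputable def ed : Cfsg.Spor.M11 := el Td hTd (by decide +kernel) (by decide +kernel)

theorem pow_eq_one {T : List Nat} (h : inM24 T = true) (hd : permMask (tf T) d0 = d0)
    (h0 : tf T 0 = 0) (k : Nat) (hk : powT T k = idT) : el T h hd h0 ^ k = 1 := by
  apply Subtype.ext
  show permOf T ^ k = 1
  rw [permOf_powT (isPerm_of_inM24 h) k]
  exact permOf_eq_one hk

theorem pow_ne_one {T : List Nat} (h : inM24 T = true) (hd : permMask (tf T) d0 = d0)
    (h0 : tf T 0 = 0) (k : Nat) (i : Nat) (hi : i < 24) (hk : tf (powT T k) i ≠ i) :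
    el T h hd h0 ^ k ≠ 1 := by
  intro e
  have e1 : permOf T ^ k = 1 := congrArg Subtype.val e
  rw [permOf_powT (isPerm_of_inM24 h) k] at e1
  exact permOf_ne_one_of (isPerm_powT (isPerm_of_inM24 h) k) i hi hk e1

theorem mul_eq_mul {T1 T2 T3 T4 : List Nat} (h1 : inM24 T1 = true)
    (hd1 : permMask (tf T1) d0 = d0) (h01 : tf T1 0 = 0) (h2 : inM24 T2 = true)
    (hd2 : permMask (tf T2) d0 = d0) (h02 : tf T2 0 = 0) (h3 : inM24 T3 = true)
    (hd3 : permMask (tf T3) d0 = d0) (h03 : tf T3 0 = 0) (h4 : inM24 T4 = true)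
    (hd4 : permMask (tf T4) d0 = d0) (h04 : tf T4 0 = 0) (h : comp T1 T2 = comp T3 T4) :
    el T1 h1 hd1 h01 * el T2 h2 hd2 h02 = el T3 h3 hd3 h03 * el T4 h4 hd4 h04 := by
  apply Subtype.ext
  show permOf T1 * permOf T2 = permOf T3 * permOf T4
  rw [permOf_mul (isPerm_of_inM24 h1) (isPerm_of_inM24 h2),
    permOf_mul (isPerm_of_inM24 h3) (isPerm_of_inM24 h4), h]

/-- `y x = x³ y` -/
theorem rel_yx : ey * ex = ex ^ 3 * ey := by
  apply Subtype.ext
  show permOf Ty * permOf Tx = permOf Tx ^ 3 * permOf Ty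
  rw [permOf_powT (isPerm_of_inM24 hTx) 3, permOf_mul (isPerm_of_inM24 hTy) (isPerm_of_inM24 hTx),
    permOf_mul (isPerm_powT (isPerm_of_inM24 hTx) 3) (isPerm_of_inM24 hTy)]
  exact congrArg permOf (by decide +kernel)

/-- `a y a = y` -/
theorem rel_aya : ea * ey * ea = ey := by
  apply Subtype.ext
  show permOf Ta * permOf Ty * permOf Ta = permOf Ty
  rw [permOf_mul (isPerm_of_inM24 hTa) (isPerm_of_inM24 hTy),
    permOf_mul (isPerm_comp (isPerm_of_inM24 hTa) (isPerm_of_inM24 hTy)) (isPerm_of_inM24 hTa)]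
  exact congrArg permOf (by decide +kernel)

theorem rel_ab : ea * eb = eb * ea :=
  mul_eq_mul _ _ _ _ _ _ _ _ _ _ _ _ (by decide +kernel)

theorem rel_yb : ey * eb = eb * ey :=
  mul_eq_mul _ _ _ _ _ _ _ _ _ _ _ _ (by decide +kernel)

/-- the Schur multiplier of `M₁₁` is trivial -/
theorem schur_M11 : Cfsg.HasCyclicSchurMultiplier Cfsg.Spor.M11 1 := by
  have hfin : Finite Cfsg.Spor.M11 := inferInstance
  refine Cfsg.Agent.Helper17.J1.schur_trivial_7920 card_M11 ex ey ea eb ey ec ed
    (pow_eq_one _ _ _ 8 (by decide +kernel))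
    (pow_ne_one _ _ _ 4 4 (by norm_num) (by decide +kernel))
    (pow_eq_one _ _ _ 2 (by decide +kernel))
    (by rw [mul_inv_eq_iff_eq_mul]; exact rel_yx)
    (pow_eq_one _ _ _ 3 (by decide +kernel))
    (by
      have := pow_ne_one hTa (by decide +kernel) (by decide +kernel) 1 1 (by norm_num)
        (by decide +kernel)
      rwa [pow_one] at this)
    (pow_eq_one _ _ _ 3 (by decide +kernel))
    (by
      have := pow_ne_one hTb (by decide +kernel) (by decide +kernel) 1 1 (by norm_num)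
        (by decide +kernel)
      rwa [pow_one] at this)
    rel_ab
    (by
      rw [mul_inv_eq_iff_eq_mul, eq_inv_mul_iff_mul_eq, ← mul_assoc]
      exact rel_aya)
    (by rw [mul_inv_eq_iff_eq_mul]; exact rel_yb)
    (pow_eq_one _ _ _ 5 (by decide +kernel))
    (by
      have := pow_ne_one hTc (by decide +kernel) (by decide +kernel) 1 2 (by norm_num)
        (by decide +kernel)
      rwa [pow_one] at this)
    (pow_eq_one _ _ _ 11 (by decide +kernel))
    (by
      have := pow_ne_one hTd (by decide +kernel) (by decide +kernel) 1 1 (by norm_num)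
        (by decide +kernel)
      rwa [pow_one] at this)

end Cfsg.Agent.Helper17.M11S
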