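import Mathlib
import Cfsg.Agent.Helper17.M11.SchurM11
import Cfsg.Agent.Helper17.M11.L211

/-!
# The stabiliser in `M₁₁` of a point of the second dodecad is `PSL₂(11)` (helper17)

The stabiliser, in the group of the binary Golay code, of a dodecad, one of its points and a point
outside it is isomorphic to `PSL₂(11)`: all such triples are conjugate (helper28's `flag_normal`,
and twelve explicit elements of `M₁₁`), the stabiliser of one triple has order at most 660 and
contains two elements satisfying the relations of `L₂(11)`.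
-/

set_option autoImplicit false

namespace Cfsg.Agent.Helper17.M11S

open Cfsg Cfsg.Agent.Helper28 Cfsg.Agent.Helper28.Golay Cfsg.Agent.Helper17.J1
open scoped Pointwise

/-! ### words in tables -/

/-- four letters -/
def colsT (T0 T1 T2 T3 : List Nat) : ℕ → List Nat
  | 0 => T0
  | 1 => T1
  | 2 => T2
  | 3 => T3
  | _ => idT

/-- the table of a word -/
def evT (T0 T1 T2 T3 : List Nat) : List ℕ → List Nat
  | [] => idT
  | l :: w => comp (colsT T0 T1 T2 T3 l) (evT T0 T1 T2 T3 w)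

section

variable {T0 T1 T2 T3 : List Nat}

theorem isPerm_colsT (h0 : isPerm T0 = true) (h1 : isPerm T1 = true) (h2 : isPerm T2 = true)
    (h3 : isPerm T3 = true) (l : ℕ) : isPerm (colsT T0 T1 T2 T3 l) = true := by
  rcases l with _ | _ | _ | _ | l
  · exact h0
  · exact h1
  · exact h2
  · exact h3
  · exact isPerm_idT

theorem isPerm_evT (h0 : isPerm T0 = true) (h1 : isPerm T1 = true) (h2 : isPerm T2 = true)
    (h3 : isPerm T3 = true) (w : List ℕ) : isPerm (evT T0 T1 T2 T3 w) = true := by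
  induction w with
  | nil => exact isPerm_idT
  | cons l w ih => exact isPerm_comp (isPerm_colsT h0 h1 h2 h3 l) ih

theorem ev_permOf (h0 : isPerm T0 = true) (h1 : isPerm T1 = true) (h2 : isPerm T2 = true)
    (h3 : isPerm T3 = true) (e01 : comp T0 T1 = idT) (e23 : comp T2 T3 = idT) (w : List ℕ) :
    ev (permOf T0) (permOf T2) w = permOf (evT T0 T1 T2 T3 w) := by
  have i0 : (permOf T0)⁻¹ = permOf T1 := by
    apply inv_eq_of_mul_eq_one_right
    rw [permOf_mul h0 h1, e01, permOf_idT]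
  have i2 : (permOf T2)⁻¹ = permOf T3 := by
    apply inv_eq_of_mul_eq_one_right
    rw [permOf_mul h2 h3, e23, permOf_idT]
  induction w with
  | nil => rw [ev_nil]; exact permOf_idT.symm
  | cons l w ih =>
    rw [ev_cons, ih]
    have e : cols (permOf T0) (permOf T2) l = permOf (colsT T0 T1 T2 T3 l) := by
      rcases l with _ | _ | _ | _ | l
      · rfl
      · exact i0
      · rfl
      · exact i2
      · exact permOf_idT.symm
    rw [e, permOf_mul (isPerm_colsT h0 h1 h2 h3 l) (isPerm_evT h0 h1 h2 h3 w)]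
    rfl

end

/-! ### the stabiliser of the dodecad of squares, the point `0` and the point `5` -/

/-- the stabiliser of the dodecad of squares, of `0` and of `5` -/
noncomputable def H0 : Subgroup ↥Cfsg.M24 :=
  MulAction.stabilizer Cfsg.M24 (toSet d0) ⊓ MulAction.stabilizer Cfsg.M24 (pt 0) ⊓
    MulAction.stabilizer Cfsg.M24 (pt 5)

/-- elements of `M₁₁` moving the point `5` to each point outside the dodecad -/
def trT : List (List Nat) :=
  [[],
   [],
   [],
   [],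
   [],
   [0, 1, 2, 3, 4, 5, 6, 7, 8, 9, 10, 11, 12, 13, 14, 15, 16, 17, 18, 19, 20, 21, 22, 23],
   [],
   [0, 1, 2, 6, 12, 7, 8, 5, 18, 4, 15, 20, 13, 9, 23, 17, 16, 19, 3, 10, 11, 22, 14, 21],
   [],
   [],
   [0, 1, 2, 8, 3, 10, 6, 19, 9, 4, 15, 14, 16, 18, 22, 17, 13, 5, 12, 7, 11, 23, 20, 21],
   [0, 1, 2, 4, 6, 11, 18, 14, 16, 9, 20, 19, 8, 12, 17, 23, 13, 21, 3, 22, 10, 7, 5, 15],
   [],
   [],
   [0, 1, 2, 3, 6, 14, 12, 22, 13, 4, 11, 7, 9, 16, 5, 21, 18, 23, 8, 20, 15, 19, 10, 17],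
   [0, 1, 2, 4, 3, 15, 13, 10, 18, 16, 7, 23, 12, 6, 21, 5, 9, 17, 8, 19, 20, 14, 22, 11],
   [],
   [0, 1, 2, 3, 8, 17, 18, 15, 12, 13, 19, 21, 16, 6, 23, 10, 4, 5, 9, 7, 11, 22, 20, 14],
   [],
   [0, 1, 2, 6, 16, 19, 9, 10, 12, 3, 17, 11, 18, 4, 21, 5, 13, 7, 8, 15, 14, 20, 22, 23],
   [0, 1, 2, 9, 3, 20, 8, 22, 16, 13, 11, 17, 6, 4, 15, 14, 12, 23, 18, 21, 19, 5, 7, 10],
   [0, 1, 2, 4, 13, 21, 12, 22, 6, 3, 23, 10, 16, 9, 15, 14, 8, 11, 18, 20, 5, 19, 7, 17],
   [0, 1, 2, 8, 4, 22, 3, 14, 12, 16, 20, 15, 6, 9, 10, 11, 18, 21, 13, 23, 7, 17, 19, 5],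
   [0, 1, 2, 3, 13, 23, 8, 21, 9, 16, 20, 19, 18, 12, 17, 11, 6, 14, 4, 22, 7, 10, 15, 5]]

set_option maxRecDepth 100000 in
theorem trOK : ((List.range 24).all fun i => Nat.testBit d0 i ||
    (inM24 (trT.getD i []) && Nat.beq (permMask (tf (trT.getD i [])) d0) d0 &&
      Nat.beq (tf (trT.getD i []) 0) 0 && Nat.beq (tf (trT.getD i []) 5) i)) = true := by
  decide +kernel

/-- an involution -/
def Tu : List Nat := [0, 1, 2, 3, 12, 5, 9, 10, 16, 6, 7, 22, 4, 18, 14, 19, 8, 17, 13, 15, 21, 20, 11, 23]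

/-- an element of order 11 -/
def Tv : List Nat := [0, 2, 4, 6, 12, 5, 1, 21, 3, 8, 22, 14, 18, 9, 10, 19, 13, 23, 16, 17, 7, 15, 20, 11]

def Tvi : List Nat := [0, 6, 1, 8, 2, 5, 3, 20, 9, 13, 14, 23, 4, 16, 11, 21, 18, 19, 12, 15, 22, 7, 10, 17]

theorem hTu : inM24 Tu = true := by decide +kernel
theorem hTv : inM24 Tv = true := by decide +kernel
theorem hTvi : inM24 Tvi = true := by decide +kernel

theorem invT : comp Tu Tu = idT ∧ comp Tv Tvi = idT := by decide +kernel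

set_option maxRecDepth 100000 in
theorem relT : ∀ r ∈ Cfsg.Agent.Helper17.TCD.L211.relsL, evT Tu Tu Tv Tvi r = idT := by
  decide +kernel

theorem fixT : permMask (tf Tu) d0 = d0 ∧ tf Tu 0 = 0 ∧ tf Tu 5 = 5 ∧
    permMask (tf Tv) d0 = d0 ∧ tf Tv 0 = 0 ∧ tf Tv 5 = 5 := by decide +kernel

theorem movT : tf Tu 4 ≠ 4 := by decide +kernel

end Cfsg.Agent.Helper17.M11S
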