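import Mathlib
import Cfsg.Agent.Helper17.M11.Stab

/-!
# The stabiliser in `M₁₁` of a point of the second dodecad is `PSL₂(11)`: proof (helper17)
-/

set_option autoImplicit false

namespace Cfsg.Agent.Helper17.M11S

open Cfsg Cfsg.Agent.Helper28 Cfsg.Agent.Helper28.Golay Cfsg.Agent.Helper17.J1
open scoped Pointwise

/-- `M₁₁` moves the point `5` to every point outside the dodecad -/
theorem exists_M11_map (i : Nat) (hi : i < 24) (h : Nat.testBit d0 i = false) :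
    ∃ σ ∈ Cfsg.M24, σ • toSet d0 = toSet d0 ∧ σ (pt 0) = pt 0 ∧ σ (pt 5) = pt i := by
  have h1 := List.all_eq_true.1 trOK i (List.mem_range.2 hi)
  rw [h, Bool.false_or, Bool.and_eq_true, Bool.and_eq_true, Bool.and_eq_true] at h1
  obtain ⟨⟨⟨a1, a2⟩, a3⟩, a4⟩ := h1
  have a2' : permMask (tf (trT.getD i [])) d0 = d0 := Nat.eq_of_beq_eq_true a2
  have a3' : tf (trT.getD i []) 0 = 0 := Nat.eq_of_beq_eq_true a3
  have a4' : tf (trT.getD i []) 5 = i := Nat.eq_of_beq_eq_true a4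
  refine ⟨permOf (trT.getD i []), permOf_mem_M24 a1, ?_, ?_, ?_⟩
  · rw [smul_toSet_permOf (isPerm_of_inM24 a1), a2']
  · rw [permOf_pt (isPerm_of_inM24 a1) (by norm_num), a3']
  · rw [permOf_pt (isPerm_of_inM24 a1) (by norm_num), a4']

theorem card_golayPt : Fintype.card Cfsg.GolayPt = 24 := by decide +kernel

/-- the order of the stabiliser is at most 660 -/
theorem card_H0_le : Nat.card H0 ≤ 660 := by
  have h1 := card_eq_orbit_mul_stab (MulAction.stabilizer Cfsg.M24 (toSet d0) ⊓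
    MulAction.stabilizer Cfsg.M24 (pt 0)) (pt 5)
  rw [card_stab_flag (toSet d0) d0_mem (pt 0) zero_mem_d0] at h1
  have h2 : ((Finset.univ \ toSet d0 : Finset Cfsg.GolayPt) : Set Cfsg.GolayPt) ⊆
      MulAction.orbit ↥(MulAction.stabilizer Cfsg.M24 (toSet d0) ⊓
        MulAction.stabilizer Cfsg.M24 (pt 0)) (pt 5) := by
    intro q hq
    rw [Finset.mem_coe, Finset.mem_sdiff, mem_toSet] at hq
    have hb : Nat.testBit d0 (idx q) = false := by
      cases hh : Nat.testBit d0 (idx q)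
      · rfl
      · exact absurd hh hq.2
    obtain ⟨σ, hσ, s1, s2, s3⟩ := exists_M11_map (idx q) (idx_lt q) hb
    rw [pt_idx] at s3
    refine ⟨⟨⟨σ, hσ⟩, Subgroup.mem_inf.2 ⟨MulAction.mem_stabilizer_iff.2 s1,
      MulAction.mem_stabilizer_iff.2 s2⟩⟩, s3⟩
  have h3 := Set.ncard_le_ncard h2 (Set.toFinite _)
  rw [Set.ncard_coe_finset, Finset.card_univ_sdiff, card_golayPt, d0_mem.2] at h3
  have h4 : (12 : ℕ) * Nat.card H0 ≤ 7920 := by
    rw [h1]
    exact Nat.mul_le_mul_right _ (by omega)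
  omega

theorem mem_H0_of_table {T : List Nat} (h : inM24 T = true) (hd : permMask (tf T) d0 = d0)
    (h0 : tf T 0 = 0) (h5 : tf T 5 = 5) :
    (⟨permOf T, permOf_mem_M24 h⟩ : ↥Cfsg.M24) ∈ H0 := by
  refine Subgroup.mem_inf.2 ⟨Subgroup.mem_inf.2 ⟨MulAction.mem_stabilizer_iff.2 ?_,
    MulAction.mem_stabilizer_iff.2 ?_⟩, MulAction.mem_stabilizer_iff.2 ?_⟩
  · show permOf T • toSet d0 = toSet d0
    rw [smul_toSet_permOf (isPerm_of_inM24 h), hd]
  · show permOf T (pt 0) = pt 0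
    rw [permOf_pt (isPerm_of_inM24 h) (by norm_num), h0]
  · show permOf T (pt 5) = pt 5
    rw [permOf_pt (isPerm_of_inM24 h) (by norm_num), h5]

/-- the involution -/
noncomputable def hu : H0 := ⟨⟨permOf Tu, permOf_mem_M24 hTu⟩,
  mem_H0_of_table hTu fixT.1 fixT.2.1 fixT.2.2.1⟩

/-- the element of order 11 -/
noncomputable def hv : H0 := ⟨⟨permOf Tv, permOf_mem_M24 hTv⟩,
  mem_H0_of_table hTv fixT.2.2.2.1 fixT.2.2.2.2.1 fixT.2.2.2.2.2⟩

theorem rel_H0 : ∀ r ∈ Cfsg.Agent.Helper17.TCD.L211.relsL, ev hu hv r = 1 := by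
  intro r hr
  apply Subtype.ext
  apply Subtype.ext
  have e1 := Cfsg.Agent.Helper17.L27.map_ev (Cfsg.M24.subtype.comp H0.subtype) hu hv r
  have e2 : (Cfsg.M24.subtype.comp H0.subtype) hu = permOf Tu := rfl
  have e3 : (Cfsg.M24.subtype.comp H0.subtype) hv = permOf Tv := rfl
  rw [e2, e3, ev_permOf (isPerm_of_inM24 hTu) (isPerm_of_inM24 hTu) (isPerm_of_inM24 hTv)
    (isPerm_of_inM24 hTvi) invT.1 invT.2, relT r hr, permOf_idT] at e1
  exact e1

theorem hu_ne_one : hu ≠ 1 := by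
  intro h
  have h1 : permOf Tu = 1 := congrArg (fun z : H0 => ((z : ↥Cfsg.M24) : Equiv.Perm Cfsg.GolayPt)) h
  exact permOf_ne_one_of (isPerm_of_inM24 hTu) 4 (by norm_num) movT h1

/-- the stabiliser of the dodecad of squares, of `0` and of `5` is `PSL₂(11)` -/
theorem H0_iso : Nonempty (H0 ≃* Matrix.ProjectiveSpecialLinearGroup (Fin 2) (ZMod 11)) := by
  have : Fact (Nat.Prime 11) := ⟨by norm_num⟩
  have hF : Fintype.card (ZMod 11) = 11 := ZMod.card 11
  have hfin1 : Finite (Matrix.ProjectiveSpecialLinearGroup (Fin 2) (ZMod 11)) :=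
    Nat.finite_of_card_ne_zero (by rw [Cfsg.Agent.Helper17.L211.card_psl211 hF]; norm_num)
  have hs := Cfsg.Agent.Helper17.L211.simple_psl211 hF
  obtain ⟨a, b, hgen, hR⟩ := Cfsg.Agent.Helper17.L211.psl211_gens hF
  obtain ⟨e⟩ := Cfsg.Agent.Helper17.L211.iso_of_gens_le 660 Cfsg.Agent.Helper17.TCD.L211.relsL
    (Cfsg.Agent.Helper17.L211.card_psl211 hF) card_H0_le (by norm_num) a b hu hv
    (fun D x y hxy hr => Cfsg.Agent.Helper17.L211.card_le_L211 x y hxy hr) hR rel_H0 hgen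
    (Or.inl hu_ne_one)
  exact ⟨e.symm⟩

/-- every triple (dodecad, point of it, point outside it) is conjugate to the standard one -/
theorem triple_normal (d : Finset Cfsg.GolayPt) (hd : d ∈ Cfsg.dodecads) (p q : Cfsg.GolayPt)
    (hp : p ∈ d) (hq : q ∉ d) :
    ∃ g ∈ Cfsg.M24, g • d = toSet d0 ∧ g p = pt 0 ∧ g q = pt 5 := by
  obtain ⟨κ, hκ, k1, k2⟩ := flag_normal d hd p hp
  have hb : Nat.testBit d0 (idx (κ q)) = false := by
    cases hh : Nat.testBit d0 (idx (κ q))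
    · rfl
    · exfalso
      have h1 : κ q ∈ toSet d0 := (mem_toSet _ _).2 hh
      rw [← k1] at h1
      have h2 : κ • q ∈ κ • d := h1
      rw [Finset.smul_mem_smul_finset_iff] at h2
      exact hq h2
  obtain ⟨σ, hσ, s1, s2, s3⟩ := exists_M11_map (idx (κ q)) (idx_lt _) hb
  rw [pt_idx] at s3
  refine ⟨σ⁻¹ * κ, Cfsg.M24.mul_mem (Cfsg.M24.inv_mem hσ) hκ, ?_, ?_, ?_⟩
  · rw [mul_smul, k1, inv_smul_eq_iff, s1]
  · rw [Equiv.Perm.mul_apply, k2, Equiv.Perm.inv_eq_iff_eq, s2]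
  · rw [Equiv.Perm.mul_apply, Equiv.Perm.inv_eq_iff_eq, s3]

/-- the stabiliser of a dodecad, a point of it and a point outside it is `PSL₂(11)` -/
theorem stab_iso (d : Finset Cfsg.GolayPt) (hd : d ∈ Cfsg.dodecads) (p q : Cfsg.GolayPt)
    (hp : p ∈ d) (hq : q ∉ d) :
    Nonempty (↥(MulAction.stabilizer Cfsg.M24 d ⊓ MulAction.stabilizer Cfsg.M24 p ⊓
      MulAction.stabilizer Cfsg.M24 q) ≃*
        Matrix.ProjectiveSpecialLinearGroup (Fin 2) (ZMod 11)) := by
  obtain ⟨g, hg, g1, g2, g3⟩ := triple_normal d hd p q hp hq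
  let G : ↥Cfsg.M24 := ⟨g, hg⟩
  have e1 : G • d = toSet d0 := g1
  have e2 : G • p = pt 0 := g2
  have e3 : G • q = pt 5 := g3
  have hc : Function.Injective (MulAut.conj G).toMonoidHom := (MulAut.conj G).injective
  have e : H0 = (MulAction.stabilizer Cfsg.M24 d ⊓ MulAction.stabilizer Cfsg.M24 p ⊓
      MulAction.stabilizer Cfsg.M24 q).map (MulAut.conj G).toMonoidHom := by
    rw [Subgroup.map_inf _ _ _ hc, Subgroup.map_inf _ _ _ hc,
      ← MulAction.stabilizer_smul_eq_stabilizer_map_conj,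
      ← MulAction.stabilizer_smul_eq_stabilizer_map_conj,
      ← MulAction.stabilizer_smul_eq_stabilizer_map_conj, e1, e2, e3]
    rfl
  obtain ⟨f⟩ := H0_iso
  exact ⟨((Subgroup.equivMapOfInjective _ _ hc).trans (MulEquiv.subgroupCongr e.symm)).trans f⟩

end Cfsg.Agent.Helper17.M11S
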